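import Mathlib

/-!
# Data of a coset enumeration
-/

set_option autoImplicit false

namespace Cfsg.Agent.Lib.KnownSimple.MultM.Sz8L

/-- Generated data. -/
def par0 : ℕ := 0x2f6ad2728c1ee6b16a4a0e62906208000
/-- Generated data. -/
def gix0 : ℕ := 0xcccccc
/-- Generated data. -/
def dp0 : ℕ := 0xdccbbaa9988776655443322110
/-- Generated data. -/
def fa0 : ℕ := 0xce317b56939460f7358b525073148310737b56939460f7358b525073148310400
/-- Generated data. -/
def fl0 : ℕ := 0x599999a666666
/-- Generated data. -/
def fb0 : ℕ := 0xbe6d5a4e5183dcd62d4941cc520c4100319c5ed5a4e5183dcd62d4941cc520c41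
/-- Generated data. -/
def fk0 : ℕ := 0x4d36936936936936936a0000000000000000000
/-- Generated data. -/
def po0 : ℕ := 0xcb1c2fbadb2baa9a279a59238a181f79d71b699000000000000000000000000000000000000000
/-- Generated data. -/
def pc0 : ℕ := 0x8421084210842108421084210842108720000000000000000000000000000000
/-- Generated data. -/
def pa0 : ℕ := 0x30caeb2aa2692281e71a61651240e30a206102030b289207185103081000c72cf4d76df8e7aef
/-- Generated data. -/
def can0 : ℕ := 0x338bdab49ca307b9ac5a928398a418820
/-- Generated data. -/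
def tb0_0 : ℕ := 0x2f6ce272ad1ee8c16a6b0e64a06229001
/-- Generated data. -/
def fi0_0 : ℕ := 0xcf1617bad513aa940f9a530b8a120779d103680
/-- Generated data. -/
def tb0_1 : ℕ := 0x319ad2f68c2726b1ee4a16a290e608062
/-- Generated data. -/
def fi0_1 : ℕ := 0x672c2f595b2b491a2738d92328981f18571b081

end Cfsg.Agent.Lib.KnownSimple.MultM.Sz8L
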