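import Cfsg.Agent.Lib.KnownSimple.MultC.TabP

/-!
# The table of the letters
-/

set_option autoImplicit false

namespace Cfsg.Agent.Lib.KnownSimple.MultM.Sz8L

open Cfsg.Agent.Lib.KnownSimple.MultC

set_option maxRecDepth 1000000 in
/-- The table of the letters. -/
def tn : ZN := (.node 5523930938035597938136228341069673285514550040922182203797848723929241522436209992555458192938191019070103061475117729459730419903275644851870575689781 (.node 11866222017849887545533469034291075152523941512494259593483441890103774498581873219045949801967895250246753536443598507968773379980844112213072991682563 (.node 9615731632972051253758032895138938780437376028443077134094006052662596787445282275224582870657363895961508574793918528600618958790130607164083805159453 (.node 8388191427187246607235815217388146998844870494587837227953909340475605934482354045198242972081105417078166765625922722028064523929648754999156170424322 .nil .nil) (.node 6137701042452314804015952820783995116638785767053523543122466497422782048753435568581779125363352497601907372371049489904518725337149887781891036086287 .nil .nil)) (.node 6546881112650955612341388592202489051060066061744403889171033291614249488677268934130339020125515404981692106610917483664200764655514687964994883354645 (.node 142904488422483566406856599534879480759626401478257381487165584387835387835966493389192596728094231647761016610068216490255605422791280623633 .nil .nil) .nil)) (.node 11866222016849556126675901701842660279299885814742338488005587913171908507250420052539933600838359476169878776761349059452317085214470189591512312643627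 (.node 11047861877928954225021656228256833161380331100311887912054754466805519769949928228790054468384713252509312439196015492950129181563031851973124234805294 (.node 8592781461071878859657696340937086409973084747627841712582858036479243874459704564829632676394068914980604350864819105665838981267732327885699814457391 .nil .nil) (.node 27805718141731526280937483 .nil .nil)) (.node 204590034789694012497488798641281990025008755976438570549467380856440120427871833428868904572514901568454523689167214956115326774470113131991276584990 (.node 2045900349421254666750599177663730433478768854501870709869329417627222091325949167425424512339496156275272427378270405913842961962872431302241732591661 .nil .nil) .nil)))

end Cfsg.Agent.Lib.KnownSimple.MultM.Sz8L
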